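import Cfsg.Agent.H383.HT.Proj
import Cfsg.Agent.H377.TD.Bridge
import Cfsg.Agent.H681.HT.PglB

/-!
# `³D₄(q)`: the Borel subgroup is the stabiliser of the point at infinity under `f : P_{0} → PGL₂(q)` (helper383)
-/

set_option autoImplicit false
set_option linter.unusedSectionVars false

open Cfsg

namespace Cfsg.Agent.H383.HT.Proj

open CoxeterSystem Cfsg.Agent.ChevalleyStructure.CoxeterGeom Cfsg.Agent.Tits.Roots Cfsg.Agent.Tits.Core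
  Cfsg.Agent.Tits.RootComb Cfsg.Agent.Nodes.Comb Cfsg.Agent.Nodes.Reps Cfsg.Agent.Nodes.BNOf
  Cfsg.Agent.Nodes.BNOf.RGD Cfsg.Agent.Nodes.RGDChev Cfsg.Agent.Nodes.RGDFold
open Cfsg.Agent.Nodes.Bruhat Cfsg.Agent.Nodes.LeviDec Cfsg.Agent.H53.HC Cfsg.Agent.H115.HC Cfsg.Agent.H115.HC.Two
open Cfsg.Lie Cfsg.Agent.ChevalleyStructure Cfsg.Agent.ChevalleyStructure.TwistedU
  Cfsg.Agent.ChevalleyStructure.TwistedFix Cfsg.Agent.ChevalleyStructure.TwistedFixOrbit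
open Cfsg.Agent.Nodes.RGDFoldSL
open Cfsg.Agent.ChevalleyStructure.SL2Hom (up lo mem_closure_SL2)
open Cfsg.Agent.BiChar.TwDFour
open Cfsg.Agent.H115.HC.TwDFour
open Cfsg.Agent.H383.HT.PglAbs

variable {K : Type} [Field K] {q : ℕ} {φ : K →+* K} [Fintype K] (hφ : ∀ x, φ x = x ^ q)
  (hK : Fintype.card K = q ^ 3)

theorem coe_toGL_up {F : Type*} [Field F] (t : F) :
    ((Matrix.SpecialLinearGroup.toGL (up t) : GL (Fin 2) F) : Matrix (Fin 2) (Fin 2) F) = !![1, t; 0, 1] := rfl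

include hφ hK in
theorem card_F₀ (hq : 1 < q) : Nat.card ↥(RingHom.eqLocusField φ (RingHom.id K)) = q := by
  rw [← Fx_eq]
  exact card_Fx0 hφ hK hq

include hφ hK in
/-- **The projection of `P_{0}` onto `PGL₂(F_q)`**; the Borel subgroup is the stabiliser of the point at infinity. -/
theorem exists_f₁ (p : ℕ) [Fact p.Prime] [CharP K p] (hq : IsPrimePow q) :
    ∃ f : ↥(PJ cs Nodes.RGDTwD4.isCartan (Nodes.RGDTwD4.T K q) (Nodes.RGDTwD4.X φ q) {0}) →*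
        Matrix.ProjGenLinGroup (Fin 2) ↥(RingHom.eqLocusField φ (RingHom.id K)), Function.Surjective f ∧
      (∀ x : ↥(PJ cs Nodes.RGDTwD4.isCartan (Nodes.RGDTwD4.T K q) (Nodes.RGDTwD4.X φ q) {0}),
        (x : ↥(twistedD4 K q)) ∈ VJ cs Nodes.RGDTwD4.isCartan (Nodes.RGDTwD4.X φ q) {0} → f x = 1) ∧
      (∀ (x : ↥(PJ cs Nodes.RGDTwD4.isCartan (Nodes.RGDTwD4.T K q) (Nodes.RGDTwD4.X φ q) {0}))
        (t : ↥(RingHom.eqLocusField φ (RingHom.id K))),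
        ((x : ↥(twistedD4 K q)) : GL chevD4.Idx K) = Elts.xG Nodes.RGDTwD4.hp.inList 14 (t : K) →
        f x = Matrix.ProjGenLinGroup.mk (Matrix.SpecialLinearGroup.toGL (up t))) ∧
      (∀ x : ↥(PJ cs Nodes.RGDTwD4.isCartan (Nodes.RGDTwD4.T K q) (Nodes.RGDTwD4.X φ q) {0}),
        (x : ↥(twistedD4 K q)) ∈ LJ cs Nodes.RGDTwD4.isCartan (Nodes.RGDTwD4.T K q) (Nodes.RGDTwD4.X φ q) {0} →
        (f x = 1 ↔ ∀ m ∈ MJ cs Nodes.RGDTwD4.isCartan (Nodes.RGDTwD4.X φ q) {0},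
          (x : ↥(twistedD4 K q)) * m = m * x)) ∧
      (∀ x : ↥(PJ cs Nodes.RGDTwD4.isCartan (Nodes.RGDTwD4.T K q) (Nodes.RGDTwD4.X φ q) {0}),
        x ∈ (RGD.B cs Nodes.RGDTwD4.isCartan (Nodes.RGDTwD4.T K q) (Nodes.RGDTwD4.X φ q)).subgroupOf
          (PJ cs Nodes.RGDTwD4.isCartan (Nodes.RGDTwD4.T K q) (Nodes.RGDTwD4.X φ q) {0}) ↔
        f x • H377.TD.inf ↥(RingHom.eqLocusField φ (RingHom.id K)) =
          H377.TD.inf ↥(RingHom.eqLocusField φ (RingHom.id K))) ∧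
      (∀ x : ↥(PJ cs Nodes.RGDTwD4.isCartan (Nodes.RGDTwD4.T K q) (Nodes.RGDTwD4.X φ q) {0}),
        (x : ↥(twistedD4 K q)) ∈ RGD.Sup (Nodes.RGDTwD4.X φ q) (RGD.Pos cs Nodes.RGDTwD4.isCartan) →
        ∃ t : ↥(RingHom.eqLocusField φ (RingHom.id K)),
          f x = Matrix.ProjGenLinGroup.mk (Matrix.SpecialLinearGroup.toGL (up t))) := by
  have : Finite CoxeterMatrix.G₂.Group := Nodes.RGDChev.finite_W Cfsg.Agent.BiChar.GTwo.isType cs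
  have R := Nodes.RGDTwD4.rgd (K := K) cs hK hφ p
  have hle := D4Fixed.twisted_le_fix hK hφ
  obtain ⟨f, h1, h2, h3, h4⟩ := exists_f₀ hφ hK p hq
  have hUP : RGD.Sup (Nodes.RGDTwD4.X φ q) (RGD.Pos cs Nodes.RGDTwD4.isCartan) ≤
      PJ cs Nodes.RGDTwD4.isCartan (Nodes.RGDTwD4.T K q) (Nodes.RGDTwD4.X φ q) {0} :=
    le_trans (RGD.U_le_B (T := Nodes.RGDTwD4.T K q)) B_le_PJ
  have hX : ∀ u ∈ Nodes.RGDTwD4.X φ q (sr 0), ∃ t : ↥(RingHom.eqLocusField φ (RingHom.id K)),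
      ((u : ↥(twistedD4 K q)) : GL chevD4.Idx K) = Elts.xG Nodes.RGDTwD4.hp.inList 14 (t : K) := by
    intro u hu
    obtain ⟨a, rfl⟩ := (mem_X hφ hle 0 u).1 hu
    refine ⟨⟨a, ?_⟩, coe_up0 hφ hle a⟩
    rw [← Fx_eq]
    exact a.2
  have hU : ∀ x : ↥(PJ cs Nodes.RGDTwD4.isCartan (Nodes.RGDTwD4.T K q) (Nodes.RGDTwD4.X φ q) {0}),
      (x : ↥(twistedD4 K q)) ∈ RGD.Sup (Nodes.RGDTwD4.X φ q) (RGD.Pos cs Nodes.RGDTwD4.isCartan) →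
      ∃ t : ↥(RingHom.eqLocusField φ (RingHom.id K)),
        f x = Matrix.ProjGenLinGroup.mk (Matrix.SpecialLinearGroup.toGL (up t)) := by
    intro x hx
    obtain ⟨u, hu, v, hv, e⟩ := (mem_U_iff R (J := {0})).1 hx
    rw [UJ_single] at hu
    obtain ⟨t, ht⟩ := hX u hu
    have huP : u ∈ PJ cs Nodes.RGDTwD4.isCartan (Nodes.RGDTwD4.T K q) (Nodes.RGDTwD4.X φ q) {0} :=
      B_le_PJ (RGD.X_le_B (isRoot_sr cs Nodes.RGDTwD4.isCartan 0) (sr_nonneg 0) hu)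
    have e1 : x = ⟨u, huP⟩ * ⟨v, VJ_le_PJ hv⟩ := Subtype.ext e
    refine ⟨t, ?_⟩
    rw [e1, map_mul, h2 ⟨v, VJ_le_PJ hv⟩ hv, mul_one]
    exact h3 ⟨u, huP⟩ t ht
  refine ⟨f, h1, h2, h3, h4, H681.HT.mem_iff_of_index h1 (fun x hx => ?_) ?_, hU⟩
  · rw [Subgroup.mem_subgroupOf] at hx
    have h1P : Ph hφ hle 0 (up 1) ∈ Nodes.RGDTwD4.X φ q (sr 0) := (mem_X hφ hle 0 _).2 ⟨1, rfl⟩
    have h1U : Ph hφ hle 0 (up 1) ∈ RGD.Sup (Nodes.RGDTwD4.X φ q) (RGD.Pos cs Nodes.RGDTwD4.isCartan) :=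
      RGD.le_Sup (S := RGD.Pos cs Nodes.RGDTwD4.isCartan) ⟨isRoot_sr cs Nodes.RGDTwD4.isCartan 0, sr_nonneg 0⟩ h1P
    refine H377.TD.smul_inf f ⟨Ph hφ hle 0 (up 1), hUP h1U⟩ x ?_ ?_
    · have e1 : ((Ph hφ hle 0 (up 1) : ↥(twistedD4 K q)) : GL chevD4.Idx K) =
          Elts.xG Nodes.RGDTwD4.hp.inList 14 ((1 : ↥(RingHom.eqLocusField φ (RingHom.id K))) : K) := by
        rw [coe_up0, OneMemClass.coe_one, OneMemClass.coe_one]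
      exact ⟨_, h3 ⟨Ph hφ hle 0 (up 1), hUP h1U⟩ 1 e1, 1, one_ne_zero, coe_toGL_up _⟩
    · have h5 : (x : ↥(twistedD4 K q)) * Ph hφ hle 0 (up 1) * (x : ↥(twistedD4 K q))⁻¹ ∈
          RGD.Sup (Nodes.RGDTwD4.X φ q) (RGD.Pos cs Nodes.RGDTwD4.isCartan) :=
        (Subgroup.mem_normalizer_iff.1 (R.B_le_normalizer_U hx) _).1 h1U
      obtain ⟨t, ht⟩ := hU (x * ⟨Ph hφ hle 0 (up 1), hUP h1U⟩ * x⁻¹) (by
        rw [Subgroup.coe_mul, Subgroup.coe_mul, InvMemClass.coe_inv]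
        exact h5)
      exact ⟨_, ht, t, coe_toGL_up _⟩
  · rw [card_F₀ hφ hK hq.one_lt]
    have h5 := Cfsg.Agent.H554.RG.relIndex_B_PJ_singleton R 0
    rw [card_X0 hφ hle hq.one_lt hK] at h5
    exact h5

end Cfsg.Agent.H383.HT.Proj
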